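import Mathlib

/-! Commutator calculus modulo normal subgroups (helper3). -/

set_option autoImplicit false

namespace Cfsg.Agent.H3.Comm

open Subgroup

variable {G : Type*} [Group G]

theorem commutator_le_iff_map {A B T : Subgroup G} [T.Normal] :
    ⁅A, B⁆ ≤ T ↔ ⁅A.map (QuotientGroup.mk' T), B.map (QuotientGroup.mk' T)⁆ = ⊥ := by
  rw [← Subgroup.map_commutator, Subgroup.map_eq_bot_iff, QuotientGroup.ker_mk']

theorem map_le_centralizer_iff {A B T : Subgroup G} [T.Normal] :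
    ⁅A, B⁆ ≤ T ↔ A.map (QuotientGroup.mk' T) ≤
      centralizer ((B.map (QuotientGroup.mk' T) : Subgroup (G ⧸ T)) : Set (G ⧸ T)) := by
  rw [commutator_le_iff_map, commutator_eq_bot_iff_le_centralizer]

/-- Three subgroups lemma modulo a normal subgroup. -/
theorem three_subgroups_le {A B C T : Subgroup G} [T.Normal] (h1 : ⁅⁅B, C⁆, A⁆ ≤ T)
    (h2 : ⁅⁅C, A⁆, B⁆ ≤ T) : ⁅⁅A, B⁆, C⁆ ≤ T := by
  rw [commutator_le_iff_map, Subgroup.map_commutator] at *
  exact commutator_commutator_eq_bot_of_rotate h1 h2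

theorem sup_commutator_le {A B C T : Subgroup G} [T.Normal] (h1 : ⁅A, C⁆ ≤ T) (h2 : ⁅B, C⁆ ≤ T) :
    ⁅A ⊔ B, C⁆ ≤ T := by
  rw [map_le_centralizer_iff] at *
  rw [Subgroup.map_sup]
  exact sup_le h1 h2

theorem commutator_sup_le {A B C T : Subgroup G} [T.Normal] (h1 : ⁅C, A⁆ ≤ T) (h2 : ⁅C, B⁆ ≤ T) :
    ⁅C, A ⊔ B⁆ ≤ T := by
  rw [commutator_comm] at *
  exact sup_commutator_le h1 h2

theorem iSup_commutator_le {ι : Sort*} {A : ι → Subgroup G} {C T : Subgroup G} [T.Normal]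
    (h1 : ∀ i, ⁅A i, C⁆ ≤ T) : ⁅⨆ i, A i, C⁆ ≤ T := by
  rw [map_le_centralizer_iff, Subgroup.map_iSup]
  exact iSup_le fun i => map_le_centralizer_iff.1 (h1 i)

end Cfsg.Agent.H3.Comm
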