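import Mathlib
import Cfsg.Agent.Lib.FrobGrp

/-! Frobenius groups from free linear actions (helper3). -/

set_option autoImplicit false

namespace Cfsg.Agent.H3.FrobAct

open Subgroup Cfsg Cfsg.Agent.Lib.FrobGrp

/-- A bare type with `n` elements, in universe `0`. -/
structure Car (n : ℕ) where
  /-- the underlying number -/
  val : Fin n

/-- the equivalence with `Fin n` -/
def carEquiv (n : ℕ) : Car n ≃ Fin n :=
  { toFun := Car.val, invFun := Car.mk, left_inv := fun _ => rfl, right_inv := fun _ => rfl }

/-- A finite group acting freely on a nontrivial finite abelian group is a Frobenius complement. -/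
theorem exists_frob {H : Type*} [Group H] [Finite H] [Nontrivial H] {V : Type*} [AddCommGroup V]
    [Finite V] [Nontrivial V] [DistribMulAction H V]
    (hfree : ∀ h : H, h ≠ 1 → ∀ v : V, h • v = v → v = 0) :
    ∃ (L : Type) (_ : Group L) (_ : Finite L) (K : Subgroup L), IsFrobeniusComplement K ∧
      Nonempty (H ≃* K) ∧ Nat.card (frobeniusKernel K) = Nat.card V := by
  let φ : H →* MulAut (Multiplicative V) :=
    { toFun := fun h =>
        { toFun := fun v => Multiplicative.ofAdd (h • Multiplicative.toAdd v)
          invFun := fun v => Multiplicative.ofAdd (h⁻¹ • Multiplicative.toAdd v)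
          left_inv := fun v => by simp
          right_inv := fun v => by simp
          map_mul' := fun v w => by simp }
      map_one' := by ext v; simp
      map_mul' := fun a b => by ext v; simp [mul_smul] }
  let L0 := Multiplicative V ⋊[φ] H
  haveI : Finite L0 := Finite.of_equiv _ (SemidirectProduct.equivProd (φ := φ)).symm
  let e0 : L0 ≃ Car (Nat.card L0) := (Finite.equivFin L0).trans (carEquiv _).symm
  letI gL : Group (Car (Nat.card L0)) := e0.symm.group
  haveI fL : Finite (Car (Nat.card L0)) := Finite.of_equiv _ e0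
  have hmul : ∀ a b : L0, e0 (a * b) = e0 a * e0 b := by
    intro a b
    change e0 (a * b) = e0 (e0.symm (e0 a) * e0.symm (e0 b))
    simp
  let e : L0 ≃* Car (Nat.card L0) := { e0 with map_mul' := hmul }
  let fV : Multiplicative V →* Car (Nat.card L0) := e.toMonoidHom.comp SemidirectProduct.inl
  let fH : H →* Car (Nat.card L0) := e.toMonoidHom.comp SemidirectProduct.inr
  have hVinj : Function.Injective fV := e.injective.comp SemidirectProduct.inl_injective
  have hHinj : Function.Injective fH := e.injective.comp SemidirectProduct.inr_injective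
  have hact : ∀ (h : H) (v : Multiplicative V), fH h * fV v * (fH h)⁻¹ = fV (φ h v) := by
    intro h v
    change e (SemidirectProduct.inr h) * e (SemidirectProduct.inl v) * (e (SemidirectProduct.inr h))⁻¹ =
      e (SemidirectProduct.inl (φ h v))
    rw [SemidirectProduct.inl_aut, map_mul, map_mul, map_inv, map_inv]
  have hdec : ∀ x : Car (Nat.card L0), ∃ v h, x = fV v * fH h := by
    intro x
    refine ⟨(e.symm x).left, (e.symm x).right, ?_⟩
    change x = e _ * e _
    rw [← map_mul, SemidirectProduct.inl_left_mul_inr_right, e.apply_symm_apply]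
  have hn : fV.range.Normal := by
    constructor
    rintro _ ⟨v, rfl⟩ g
    obtain ⟨w, h, rfl⟩ := hdec g
    refine ⟨w * φ h v * w⁻¹, ?_⟩
    rw [map_mul, map_mul, map_inv, ← hact]; group
  have hinf : fV.range ⊓ fH.range = ⊥ := by
    rw [eq_bot_iff]
    rintro _ ⟨⟨v, rfl⟩, ⟨h, hh⟩⟩
    have h1 : e (SemidirectProduct.inr h) = e (SemidirectProduct.inl v) := hh
    have h2 := congrArg SemidirectProduct.right (e.injective h1)
    simp only [SemidirectProduct.right_inr, SemidirectProduct.right_inl] at h2
    rw [mem_bot, ← hh, h2, map_one]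
  have hsup : fV.range ⊔ fH.range = ⊤ := by
    rw [eq_top_iff]
    intro x _
    obtain ⟨v, h, rfl⟩ := hdec x
    exact mul_mem (mem_sup_left ⟨v, rfl⟩) (mem_sup_right ⟨h, rfl⟩)
  have hVb : fV.range ≠ ⊥ := by
    intro hb
    obtain ⟨v, hv⟩ := exists_ne (1 : Multiplicative V)
    apply hv
    apply hVinj
    have : fV v ∈ fV.range := ⟨v, rfl⟩
    rw [hb, mem_bot] at this
    rw [this, map_one]
  have hHb : fH.range ≠ ⊥ := by
    intro hb
    obtain ⟨v, hv⟩ := exists_ne (1 : H)
    apply hv
    apply hHinj
    have : fH v ∈ fH.range := ⟨v, rfl⟩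
    rw [hb, mem_bot] at this
    rw [this, map_one]
  obtain ⟨h1, h2⟩ := frobenius_of_complement (N := fV.range) (H := fH.range) hinf hsup hVb hHb (by
    rintro _ ⟨h, rfl⟩ hne _ ⟨v, rfl⟩ hc
    have h3 : fH h * fV v * (fH h)⁻¹ = fV v := by rw [← hc]; group
    rw [hact] at h3
    have h4 := hVinj h3
    have h5 : h ≠ 1 := by
      rintro rfl
      exact hne (map_one _)
    have h6 : h • Multiplicative.toAdd v = Multiplicative.toAdd v := h4
    have h7 := hfree h h5 _ h6
    have h8 : v = 1 := h7
    rw [h8, map_one])
  refine ⟨Car (Nat.card L0), gL, fL, fH.range, h1, ⟨MonoidHom.ofInjective hHinj⟩, ?_⟩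
  rw [h2]
  have e3 : Multiplicative V ≃* fV.range := MonoidHom.ofInjective hVinj
  exact (Nat.card_congr e3.toEquiv).symm

/-- version along an injective homomorphism into a group acting freely -/
theorem exists_frob_of_hom {H : Type*} [Group H] [Finite H] [Nontrivial H] {V : Type*} [AddCommGroup V]
    [Finite V] [Nontrivial V] (f : H →* AddMonoid.End V)
    (hfree : ∀ h : H, h ≠ 1 → ∀ v : V, f h v = v → v = 0) :
    ∃ (L : Type) (_ : Group L) (_ : Finite L) (K : Subgroup L), IsFrobeniusComplement K ∧
      Nonempty (H ≃* K) ∧ Nat.card (frobeniusKernel K) = Nat.card V := by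
  letI : DistribMulAction H V := DistribMulAction.compHom V f
  exact exists_frob (H := H) (V := V) hfree

end Cfsg.Agent.H3.FrobAct
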