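import Mathlib

/-! Modules for the quaternion group on abelian groups of odd order (helper3). -/

set_option autoImplicit false

namespace Cfsg.Agent.H3.QMod

theorem two_smul_cancel {V : Type*} [AddCommGroup V] [Finite V] (hodd : Odd (Nat.card V)) {v : V}
    (h : v + v = 0) : v = 0 := by
  have h1 : addOrderOf v ∣ 2 := by
    apply addOrderOf_dvd_of_nsmul_eq_zero
    rw [two_nsmul]; exact h
  have h2 : addOrderOf v ∣ Nat.card V := addOrderOf_dvd_natCard v
  have h3 : Nat.Coprime 2 (Nat.card V) := (Nat.coprime_two_left).2 hodd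
  have h4 : addOrderOf v = 1 := by
    have := Nat.dvd_gcd h1 h2
    rw [h3] at this
    exact Nat.dvd_one.1 this
  exact AddMonoid.addOrderOf_eq_one_iff.1 h4

/-- elementary abelian case -/
theorem isSquare_elem {V : Type*} [AddCommGroup V] [Finite V] {p : ℕ} (hp : p.Prime) (hp2 : p ≠ 2)
    (hpV : ∀ v : V, p • v = 0) (I J : V →+ V) (hI : ∀ v, I (I v) = -v) (hJ : ∀ v, J (J v) = -v)
    (hIJ : ∀ v, I (J v) = -(J (I v))) : IsSquare (Nat.card V) := by
  haveI : Fact p.Prime := ⟨hp⟩
  obtain ⟨a', b', hab'⟩ := ZMod.sq_add_sq p (-1)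
  obtain ⟨a, b, c, hab⟩ : ∃ a b c : ℤ, a * a + b * b = -1 + c * p := by
    refine ⟨(a'.val : ℤ), (b'.val : ℤ), ?_⟩
    have h1 : ((((a'.val : ℤ) * a'.val + b'.val * b'.val + 1 : ℤ)) : ZMod p) = 0 := by
      push_cast
      rw [ZMod.natCast_zmod_val, ZMod.natCast_zmod_val]
      have : a' * a' + b' * b' + 1 = (a' ^ 2 + b' ^ 2) + 1 := by ring
      rw [this, hab']; ring
    rw [ZMod.intCast_zmod_eq_zero_iff_dvd] at h1
    obtain ⟨c, hc⟩ := h1
    exact ⟨c, by linarith⟩
  obtain ⟨m, hm⟩ : ∃ m : ℕ, m + m = p + 1 := by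
    rcases hp.eq_two_or_odd with h | h
    · exact absurd h hp2
    · exact ⟨(p + 1) / 2, by omega⟩
  have hm' : ∀ v : V, m • (v + v) = v := by
    intro v
    rw [smul_add, ← add_smul, hm, add_smul, hpV, one_smul, zero_add]
  let s : V →+ V := a • I + b • J
  have hs : ∀ v, s v = a • I v + b • J v := fun v => rfl
  have hss : ∀ v, s (s v) = v := by
    intro v
    have h1 : s (s v) = (a * a + b * b) • (-v) := by
      rw [hs, hs]
      rw [map_add, map_add, map_zsmul, map_zsmul, map_zsmul, map_zsmul, hI, hJ, hIJ]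
      simp only [smul_add, smul_neg, smul_smul]
      rw [mul_comm b a, add_smul]
      abel
    rw [h1, hab, add_smul, mul_smul]
    have h2 : (p : ℤ) • (-v) = 0 := by rw [natCast_zsmul]; exact hpV _
    rw [h2, smul_zero, add_zero]; simp
  let A : AddSubgroup V := (s - AddMonoidHom.id V).ker
  let B : AddSubgroup V := (s + AddMonoidHom.id V).ker
  have hA : ∀ v, v ∈ A ↔ s v = v := by
    intro v
    rw [AddMonoidHom.mem_ker, AddMonoidHom.sub_apply, AddMonoidHom.id_apply, sub_eq_zero]
  have hB : ∀ v, v ∈ B ↔ s v = -v := by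
    intro v
    rw [AddMonoidHom.mem_ker, AddMonoidHom.add_apply, AddMonoidHom.id_apply, add_eq_zero_iff_eq_neg]
  have hKs : ∀ v, s (I (J v)) = -(I (J (s v))) := by
    intro v
    rw [hs, hs]
    rw [map_add, map_add, map_zsmul, map_zsmul, map_zsmul, map_zsmul, hI, hJ]
    have e1 : J (I (J v)) = I v := by
      have := hIJ (J v)
      rw [hJ, map_neg] at this
      exact (neg_injective this).symm
    have e2 : I (J (I v)) = J v := by
      have := hIJ (I v)
      rw [hI, map_neg, neg_neg] at this
      exact this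
    rw [e1, e2, map_neg]
    simp only [smul_neg, neg_add, neg_neg]
  have cAB : Nat.card A = Nat.card B := by
    refine Nat.card_congr
      { toFun := fun v => ⟨I (J v), by
          rw [hB, hKs, (hA _).1 v.2]⟩
        invFun := fun v => ⟨-(I (J v)), by
          rw [hA, map_neg, hKs, (hB _).1 v.2]; simp⟩
        left_inv := ?_
        right_inv := ?_ }
    · intro v
      apply Subtype.ext
      change -(I (J (I (J v)))) = v
      rw [hIJ (I (J (v : V))), hI, map_neg, hJ]; simp
    · intro v
      apply Subtype.ext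
      change I (J (-(I (J v)))) = v
      rw [hIJ, map_neg, map_neg, hI, map_neg, neg_neg, hJ, neg_neg]
  have cV : Nat.card V = Nat.card A * Nat.card B := by
    rw [← Nat.card_prod]
    refine Nat.card_congr
      { toFun := fun v => (⟨m • (v + s v), ?_⟩, ⟨m • (v - s v), ?_⟩)
        invFun := fun w => (w.1 : V) + (w.2 : V)
        left_inv := ?_
        right_inv := ?_ }
    · rw [hA, map_nsmul, map_add, hss, add_comm]
    · rw [hB, map_nsmul, map_sub, hss, ← smul_neg, neg_sub]
    · intro v
      change m • (v + s v) + m • (v - s v) = v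
      rw [← smul_add]
      have : v + s v + (v - s v) = v + v := by abel
      rw [this, hm']
    · rintro ⟨⟨x, hx⟩, ⟨y, hy⟩⟩
      have hx' : s x = x := (hA x).1 hx
      have hy' : s y = -y := (hB y).1 hy
      refine Prod.ext (Subtype.ext ?_) (Subtype.ext ?_)
      · change m • (x + y + s (x + y)) = x
        rw [map_add, hx', hy']
        have : x + y + (x + -y) = x + x := by abel
        rw [this, hm']
      · change m • (x + y - s (x + y)) = y
        rw [map_add, hx', hy']
        have : x + y - (x + -y) = y + y := by abel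
        rw [this, hm']
  rw [cV, ← cAB]
  exact ⟨_, rfl⟩

theorem isSquare_aux (n : ℕ) : ∀ (V : Type*) [AddCommGroup V] [Finite V] (I J : V →+ V),
    Nat.card V = n → Odd n → (∀ v, I (I v) = -v) → (∀ v, J (J v) = -v) →
    (∀ v, I (J v) = -(J (I v))) → IsSquare n := by
  induction n using Nat.strong_induction_on with
  | _ n ih =>
  intro V _ _ I J hn hodd hI hJ hIJ
  by_cases hn1 : n = 1
  · rw [hn1]; exact ⟨1, rfl⟩
  obtain ⟨p, hp, hpn⟩ := Nat.exists_prime_and_dvd hn1
  have hp2 : p ≠ 2 := by
    rintro rfl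
    exact (Nat.not_even_iff_odd.2 hodd) (even_iff_two_dvd.2 hpn)
  haveI : Fact p.Prime := ⟨hp⟩
  let P : V →+ V := nsmulAddMonoidHom p
  have hP : ∀ v, P v = p • v := fun v => rfl
  let W := P.ker
  let U := P.range
  have hcard : Nat.card V = Nat.card U * Nat.card W := by
    have h1 := W.card_mul_index
    have h2 : W.index = Nat.card U := AddSubgroup.index_ker P
    rw [h2] at h1
    rw [← h1, mul_comm]
  have hWp : 1 < Nat.card W := by
    obtain ⟨v, hv⟩ := exists_prime_addOrderOf_dvd_card' (G := V) p (by rw [hn]; exact hpn)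
    have hvW : v ∈ W := by
      rw [AddMonoidHom.mem_ker, hP, ← hv]
      exact addOrderOf_nsmul_eq_zero v
    haveI : Nontrivial W := ⟨⟨⟨v, hvW⟩, 0, fun h => by
      have h0 : v = 0 := congrArg (fun z : W => (z : V)) h
      rw [h0, addOrderOf_zero] at hv
      exact hp.one_lt.ne hv⟩⟩
    exact Finite.one_lt_card
  have hUpos : 0 < Nat.card U := Nat.card_pos
  have hU : IsSquare (Nat.card U) := by
    refine ih (Nat.card U) ?_ U
      ((I.comp U.subtype).codRestrict U ?_) ((J.comp U.subtype).codRestrict U ?_) rfl ?_ ?_ ?_ ?_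
    · rw [← hn, hcard]; nlinarith
    · rintro ⟨_, v, rfl⟩
      exact ⟨I v, (map_nsmul I p v).symm⟩
    · rintro ⟨_, v, rfl⟩
      exact ⟨J v, (map_nsmul J p v).symm⟩
    · rw [← hn, hcard] at hodd
      exact (Nat.odd_mul.1 hodd).1
    · intro v; exact Subtype.ext (hI v)
    · intro v; exact Subtype.ext (hJ v)
    · intro v; exact Subtype.ext (hIJ v)
  have hW : IsSquare (Nat.card W) := by
    refine isSquare_elem (V := W) hp hp2 ?_
      ((I.comp W.subtype).codRestrict W ?_) ((J.comp W.subtype).codRestrict W ?_) ?_ ?_ ?_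
    · intro v; exact Subtype.ext v.2
    · intro v
      change P (I v) = 0
      have : P v = 0 := v.2
      rw [hP] at this ⊢
      rw [← map_nsmul, this, map_zero]
    · intro v
      change P (J v) = 0
      have : P v = 0 := v.2
      rw [hP] at this ⊢
      rw [← map_nsmul, this, map_zero]
    · intro v; exact Subtype.ext (hI v)
    · intro v; exact Subtype.ext (hJ v)
    · intro v; exact Subtype.ext (hIJ v)
  rw [← hn, hcard]
  exact hU.mul hW

theorem isSquare_of_quaternion {V : Type*} [AddCommGroup V] [Finite V] (hodd : Odd (Nat.card V))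
    (I J : V →+ V) (hI : ∀ v, I (I v) = -v) (hJ : ∀ v, J (J v) = -v)
    (hIJ : ∀ v, I (J v) = -(J (I v))) : IsSquare (Nat.card V) :=
  isSquare_aux _ V I J rfl hodd hI hJ hIJ

/-- existence of quaternion modules of every odd square order -/
theorem exists_quaternion (k : ℕ) (hk : Odd k) : ∃ (V : Type) (_ : AddCommGroup V) (_ : Finite V)
    (I J : V →+ V), Nat.card V = k * k ∧ (∀ v, I (I v) = -v) ∧ (∀ v, J (J v) = -v) ∧
    (∀ v, I (J v) = -(J (I v))) := by
  induction k using induction_on_primes with
  | zero => exact absurd hk (by decide)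
  | one =>
    refine ⟨Unit, inferInstance, inferInstance, 0, 0, by simp, ?_, ?_, ?_⟩ <;> intro v <;> rfl
  | prime_mul p a hp ih =>
    obtain ⟨hpo, hao⟩ := Nat.odd_mul.1 hk
    obtain ⟨V, i1, i2, I, J, hc, hI, hJ, hIJ⟩ := ih hao
    haveI : Fact p.Prime := ⟨hp⟩
    obtain ⟨x, y, hxy⟩ := ZMod.sq_add_sq p (-1)
    let F := ZMod p
    let I' : F × F →+ F × F :=
      { toFun := fun v => (x * v.1 + y * v.2, y * v.1 - x * v.2)
        map_zero' := by simp
        map_add' := fun v w => by
          refine Prod.ext ?_ ?_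
          · change x * (v.1 + w.1) + y * (v.2 + w.2) = (x * v.1 + y * v.2) + (x * w.1 + y * w.2)
            ring
          · change y * (v.1 + w.1) - x * (v.2 + w.2) = (y * v.1 - x * v.2) + (y * w.1 - x * w.2)
            ring }
    let J' : F × F →+ F × F :=
      { toFun := fun v => (-v.2, v.1)
        map_zero' := by simp
        map_add' := fun v w => by
          refine Prod.ext ?_ rfl
          change -(v.2 + w.2) = -v.2 + -w.2
          ring }
    have hI' : ∀ v, I' (I' v) = -v := by
      intro v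
      refine Prod.ext ?_ ?_
      · change x * (x * v.1 + y * v.2) + y * (y * v.1 - x * v.2) = -v.1
        linear_combination v.1 * hxy
      · change y * (x * v.1 + y * v.2) - x * (y * v.1 - x * v.2) = -v.2
        linear_combination v.2 * hxy
    have hJ' : ∀ v, J' (J' v) = -v := fun v => rfl
    have hIJ' : ∀ v, I' (J' v) = -(J' (I' v)) := by
      intro v
      refine Prod.ext ?_ ?_
      · change x * (-v.2) + y * v.1 = -(-(y * v.1 - x * v.2))
        ring
      · change y * (-v.2) - x * v.1 = -(x * v.1 + y * v.2)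
        ring
    refine ⟨(F × F) × V, inferInstance, inferInstance, I'.prodMap I, J'.prodMap J, ?_, ?_, ?_, ?_⟩
    · rw [Nat.card_prod, Nat.card_prod, hc, Nat.card_zmod]; ring
    · rintro ⟨v, w⟩
      exact Prod.ext (hI' v) (hI w)
    · rintro ⟨v, w⟩
      exact Prod.ext (hJ' v) (hJ w)
    · rintro ⟨v, w⟩
      exact Prod.ext (hIJ' v) (hIJ w)

end Cfsg.Agent.H3.QMod
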