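import Mathlib
import Cfsg.Agent.Lib.FrobGrp
import Cfsg.Agent.H3.QMod
import Cfsg.Agent.H3.FrobAct

/-! Frobenius complements of even order: elementary theory (helper3). -/

set_option autoImplicit false

namespace Cfsg.Agent.H3.FrobEven

open Subgroup Cfsg Cfsg.Agent.Lib.FrobGrp Cfsg.Agent.H3.Count Cfsg.Agent.Lib.ClassSizes

variable {G : Type*} [Group G]

/-- for `g ∉ H`, the product `t * t^g` of two involutions lies in the kernel. -/
theorem mul_conj_mem {H : Subgroup G} (hH : IsFrobeniusComplement H) {t : G} (ht : t ∈ H)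
    (ht1 : t ≠ 1) (ht2 : t * t = 1) {g : G} (hg : g ∉ H) :
    t * (g * t * g⁻¹) ∈ frobeniusKernel H ∧ t * (g * t * g⁻¹) ≠ 1 := by
  have htinv : t⁻¹ = t := inv_eq_of_mul_eq_one_left ht2
  have hne : t * (g * t * g⁻¹) ≠ 1 := by
    intro h
    have h1 : g * t * g⁻¹ = t := by
      have := eq_inv_of_mul_eq_one_right h
      rw [this, htinv]
    apply hg
    refine mem_of_commute hH ht ht1 ?_
    rw [mul_inv_eq_iff_eq_mul] at h1
    exact h1
  refine ⟨?_, hne⟩
  rw [mem_frobeniusKernel]
  right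
  intro k hk
  set b := g * t * g⁻¹ with hb
  have hbinv : b⁻¹ = b := by rw [hb]; simp [mul_assoc, htinv]
  set y := t * b with hy
  have hne' : k⁻¹ * y * k ≠ 1 := by
    intro h
    apply hne
    have : y = k * (k⁻¹ * y * k) * k⁻¹ := by group
    rw [this, h]; group
  have hyinv : y⁻¹ = b * t := by rw [hy, mul_inv_rev, hbinv, htinv]
  have h1 : k⁻¹ * t * k ∈ H := by
    refine mem_of_conj_mem hH hk hne' ?_
    have e : (k⁻¹ * t * k)⁻¹ * (k⁻¹ * y * k) * (k⁻¹ * t * k) = (k⁻¹ * y * k)⁻¹ := by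
      have e1 : (k⁻¹ * t * k)⁻¹ * (k⁻¹ * y * k) * (k⁻¹ * t * k) = k⁻¹ * (t⁻¹ * y * t) * k := by group
      have e2 : (k⁻¹ * y * k)⁻¹ = k⁻¹ * y⁻¹ * k := by group
      rw [e1, e2, hyinv, hy]; group
    rw [e]; exact H.inv_mem hk
  have h2 : k⁻¹ * b * k ∈ H := by
    have e : k⁻¹ * b * k = (k⁻¹ * t * k) * (k⁻¹ * y * k) := by
      have : (k⁻¹ * t * k) * (k⁻¹ * y * k) = k⁻¹ * (t * t) * b * k := by rw [hy]; group
      rw [this, ht2]; group
    rw [e]; exact H.mul_mem h1 hk
  have hkH : k ∈ H := mem_of_conj_mem hH ht ht1 h1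
  have h3 : g⁻¹ * k ∈ H := by
    refine mem_of_conj_mem hH ht ht1 ?_
    have e : (g⁻¹ * k)⁻¹ * t * (g⁻¹ * k) = k⁻¹ * b * k := by rw [hb]; group
    rw [e]; exact h2
  apply hg
  have e : g = k * (g⁻¹ * k)⁻¹ := by group
  rw [e]
  exact H.mul_mem hkH (H.inv_mem h3)

theorem card_compl [Finite G] (H : Subgroup G) :
    Nat.card {g : G // g ∉ H} = Nat.card H * (H.index - 1) := by
  classical
  have e : Nat.card G = Nat.card {y : G // y ∈ H} + Nat.card {y : G // ¬ y ∈ H} := by
    rw [← Nat.card_sum]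
    exact Nat.card_congr (Equiv.sumCompl (fun y : G => y ∈ H)).symm
  have h1 := H.card_mul_index
  have h2 : Nat.card {y : G // y ∈ H} = Nat.card H := rfl
  rw [h2, ← h1] at e
  have h3 : 0 < H.index := Nat.pos_of_ne_zero H.index_ne_zero_of_finite
  rw [Nat.mul_sub, mul_one]
  omega

/-- every element of the kernel is a product `t * t^g`; `t` is central in `H` -/
theorem even_main [Finite G] {H : Subgroup G} (hH : IsFrobeniusComplement H) {t : G} (ht : t ∈ H)
    (ht1 : t ≠ 1) (ht2 : t * t = 1) :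
    (∀ x ∈ frobeniusKernel H, ∃ g : G, x = t * (g * t * g⁻¹)) ∧ ∀ h ∈ H, h * t = t * h := by
  classical
  let K1 := {x : G // x ∈ frobeniusKernel H ∧ x ≠ 1}
  have cK1 : Nat.card K1 = H.index - 1 := by
    have h1 := card_frobeniusKernel hH
    have e : Nat.card (frobeniusKernel H) = Nat.card {x : frobeniusKernel H // x.1 = 1} +
        Nat.card {x : frobeniusKernel H // ¬ x.1 = 1} := by
      rw [← Nat.card_sum]
      exact Nat.card_congr (Equiv.sumCompl (fun x : frobeniusKernel H => x.1 = 1)).symm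
    have e1 : Nat.card {x : frobeniusKernel H // x.1 = 1} = 1 := by
      rw [Nat.card_eq_one_iff_unique]
      refine ⟨⟨fun a b => Subtype.ext (Subtype.ext (a.2.trans b.2.symm))⟩, ⟨⟨⟨1, ?_⟩, rfl⟩⟩⟩
      rw [mem_frobeniusKernel]; exact Or.inl rfl
    have e2 : Nat.card {x : frobeniusKernel H // ¬ x.1 = 1} = Nat.card K1 :=
      Nat.card_congr
        { toFun := fun x => ⟨x.1.1, x.1.2, x.2⟩
          invFun := fun x => ⟨⟨x.1, x.2.1⟩, x.2.2⟩
          left_inv := fun x => rfl
          right_inv := fun x => rfl }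
    rw [e1, e2, h1] at e
    omega
  let f : {g : G // g ∉ H} → K1 := fun g => ⟨_, mul_conj_mem hH ht ht1 ht2 g.2⟩
  let C := centralizer ({t} : Set G)
  have hCH : C ≤ H := centralizer_le hH ht ht1
  have hfib : ∀ b : K1, Nat.card {g // f g = b} ≤ Nat.card C := by
    intro b
    by_cases hb : Nonempty {g // f g = b}
    · obtain ⟨g0⟩ := hb
      refine Nat.card_le_card_of_injective (fun g : {g // f g = b} => (⟨g0.1.1⁻¹ * g.1.1, ?_⟩ : C)) ?_
      · have h1 : t * (g.1.1 * t * g.1.1⁻¹) = t * (g0.1.1 * t * g0.1.1⁻¹) :=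
          congrArg Subtype.val (g.2.trans g0.2.symm)
        have h2 : g.1.1 * t * g.1.1⁻¹ = g0.1.1 * t * g0.1.1⁻¹ := mul_left_cancel h1
        rw [mem_centralizer_singleton]
        have e1 : g0.1.1⁻¹ * g.1.1 * t = g0.1.1⁻¹ * (g.1.1 * t * g.1.1⁻¹) * g.1.1 := by group
        rw [e1, h2]; group
      · intro a b hab
        have h1 : g0.1.1⁻¹ * a.1.1 = g0.1.1⁻¹ * b.1.1 := congrArg Subtype.val hab
        exact Subtype.ext (Subtype.ext (mul_left_cancel h1))
    · haveI : IsEmpty {g // f g = b} := not_nonempty_iff.1 hb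
      rw [Nat.card_of_isEmpty]; exact Nat.zero_le _
  haveI := Fintype.ofFinite K1
  have hsum := card_eq_sum_fiber f
  rw [card_compl] at hsum
  have hidx : 1 < H.index := by
    have h1 : H.index ≠ 1 := fun h => hH.2.1 (index_eq_one.1 h)
    have h2 : H.index ≠ 0 := H.index_ne_zero_of_finite
    omega
  have hle1 : ∑ b : K1, Nat.card {g // f g = b} ≤ ∑ b : K1, Nat.card C :=
    Finset.sum_le_sum fun b _ => hfib b
  have hsC : ∑ b : K1, Nat.card C = (H.index - 1) * Nat.card C := by
    rw [Finset.sum_const, Finset.card_univ, ← Nat.card_eq_fintype_card, cK1, smul_eq_mul]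
  have hCle : Nat.card C ≤ Nat.card H := card_le_of_le hCH
  have hCeq : Nat.card H = Nat.card C := by
    apply le_antisymm _ hCle
    rw [← hsum, hsC, mul_comm] at hle1
    exact Nat.le_of_mul_le_mul_left hle1 (by omega)
  have hCH' : C = H := eq_of_le_of_card_ge hCH hCeq.le
  refine ⟨?_, ?_⟩
  · intro x hx
    by_cases hx1 : x = 1
    · exact ⟨1, by rw [hx1]; simp [ht2]⟩
    · have hall : ∀ b : K1, Nat.card {g // f g = b} = Nat.card C := by
        have h5 : ∑ b : K1, Nat.card {g // f g = b} = ∑ b : K1, Nat.card C := by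
          rw [← hsum, hsC, hCeq, mul_comm]
        intro b
        exact (Finset.sum_eq_sum_iff_of_le fun b _ => hfib b).1 h5 b (Finset.mem_univ b)
      have h6 := hall ⟨x, hx, hx1⟩
      have h7 : 0 < Nat.card C := Nat.card_pos
      rw [← h6] at h7
      obtain ⟨⟨g, hg⟩⟩ := (Nat.card_pos_iff.1 h7).1
      exact ⟨g.1, (congrArg Subtype.val hg).symm⟩
  · intro h hh
    have : h ∈ C := by rw [hCH']; exact hh
    exact mem_centralizer_singleton.1 this

/-- The kernel of a Frobenius group with complement of even order is a subgroup, abelian and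
inverted by any involution of the complement. -/
theorem exists_kernel [Finite G] {H : Subgroup G} (hH : IsFrobeniusComplement H) {t : G}
    (ht : t ∈ H) (ht1 : t ≠ 1) (ht2 : t * t = 1) :
    ∃ K : Subgroup G, frobeniusKernel H = (K : Set G) ∧ (∀ x ∈ K, t * x * t⁻¹ = x⁻¹) ∧
      (∀ x ∈ K, ∀ y ∈ K, x * y = y * x) := by
  obtain ⟨h1, h2⟩ := even_main hH ht ht1 ht2
  have htinv : t⁻¹ = t := inv_eq_of_mul_eq_one_left ht2
  have hmem : ∀ g : G, t * (g * t * g⁻¹) ∈ frobeniusKernel H := by
    intro g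
    by_cases hg : g ∈ H
    · rw [mem_frobeniusKernel]
      left
      rw [h2 g hg]
      have : t * (t * g * g⁻¹) = t * t := by group
      rw [this, ht2]
    · exact (mul_conj_mem hH ht ht1 ht2 hg).1
  have hinv : ∀ x ∈ frobeniusKernel H, x⁻¹ ∈ frobeniusKernel H := by
    intro x hx
    rw [mem_frobeniusKernel] at hx ⊢
    rcases hx with rfl | hx
    · left; simp
    · right
      intro g hg
      apply hx g
      have := H.inv_mem hg
      have e : (g⁻¹ * x⁻¹ * g)⁻¹ = g⁻¹ * x * g := by group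
      rwa [e] at this
  have hmul : ∀ x ∈ frobeniusKernel H, ∀ y ∈ frobeniusKernel H, x * y ∈ frobeniusKernel H := by
    intro x hx y hy
    obtain ⟨a, ha⟩ := h1 _ (hinv x hx)
    obtain ⟨b, hb⟩ := h1 y hy
    have hx' : x = (a * t * a⁻¹) * t := by
      have : x = (x⁻¹)⁻¹ := (inv_inv x).symm
      rw [this, ha]
      have : (t * (a * t * a⁻¹))⁻¹ = (a * t⁻¹ * a⁻¹) * t⁻¹ := by group
      rw [this, htinv]
    have e : x * y = a * (t * ((a⁻¹ * b) * t * (a⁻¹ * b)⁻¹)) * a⁻¹ := by
      rw [hx', hb]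
      have : a * t * a⁻¹ * t * (t * (b * t * b⁻¹)) = a * t * a⁻¹ * (t * t) * (b * t * b⁻¹) := by group
      rw [this, ht2]; group
    rw [e]
    exact frobeniusKernel_conj (hmem _) a
  have htx : ∀ x ∈ frobeniusKernel H, t * x * t⁻¹ = x⁻¹ := by
    intro x hx
    obtain ⟨a, ha⟩ := h1 x hx
    rw [ha]
    have e1 : t * (t * (a * t * a⁻¹)) * t⁻¹ = (t * t) * (a * t * a⁻¹) * t⁻¹ := by group
    have e2 : (t * (a * t * a⁻¹))⁻¹ = a * t⁻¹ * a⁻¹ * t⁻¹ := by group
    rw [e1, ht2, e2, htinv, one_mul]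
  refine ⟨{ carrier := frobeniusKernel H, mul_mem' := fun hx hy => hmul _ hx _ hy,
            one_mem' := ?_, inv_mem' := fun hx => hinv _ hx }, rfl, htx, ?_⟩
  · rw [mem_frobeniusKernel]; exact Or.inl rfl
  · intro x hx y hy
    have e1 := htx (x * y) (hmul x hx y hy)
    have e2 : t * (x * y) * t⁻¹ = (t * x * t⁻¹) * (t * y * t⁻¹) := by group
    rw [e2, htx x hx, htx y hy] at e1
    -- x⁻¹ y⁻¹ = (x y)⁻¹ = y⁻¹ x⁻¹
    have e3 := congrArg (fun z => z⁻¹) e1
    simp only [mul_inv_rev, inv_inv] at e3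
    exact e3.symm

/-- Odd square order of the kernel, if the complement contains a quaternion group. -/
theorem card_kernel_of_quaternion [Finite G] {H : Subgroup G} (hH : IsFrobeniusComplement H)
    {i j : G} (hi : i ∈ H) (hj : j ∈ H) (hij : j * i * j⁻¹ = i⁻¹) (hji : j * j = i * i)
    (hi2 : i * i ≠ 1) :
    Odd (Nat.card (frobeniusKernel H)) ∧ IsSquare (Nat.card (frobeniusKernel H)) ∧
      1 < Nat.card (frobeniusKernel H) := by
  -- the involution
  have hi4 : (i * i) * (i * i) = 1 := by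
    have h1 : j * (i * i) * j⁻¹ = (i * i)⁻¹ := by
      have : j * (i * i) * j⁻¹ = (j * i * j⁻¹) * (j * i * j⁻¹) := by group
      rw [this, hij]; group
    have h2 : j * (i * i) * j⁻¹ = i * i := by rw [← hji]; group
    rw [h2] at h1
    calc (i * i) * (i * i) = (i * i) * (i * i)⁻¹ := by rw [← h1]
      _ = 1 := by group
  obtain ⟨K, hK, htK, hcomm⟩ := exists_kernel hH (H.mul_mem hi hi) hi2 hi4
  have hKn := kernel_normal hK
  have hcK : Nat.card (frobeniusKernel H) = Nat.card K := by rw [hK]; rfl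
  rw [hcK]
  have hidx : Nat.card K = H.index := kernel_card hH hK
  have hgt : 1 < Nat.card K := by
    rw [hidx]
    have h1 : H.index ≠ 1 := fun h => hH.2.1 (index_eq_one.1 h)
    have h2 : H.index ≠ 0 := H.index_ne_zero_of_finite
    omega
  have hodd : Odd (Nat.card K) := by
    have h1 := kernel_coprime hH hK
    have h2 : 2 ∣ Nat.card H := by
      have h3 : orderOf (⟨i * i, H.mul_mem hi hi⟩ : H) = 2 := by
        apply orderOf_eq_prime
        · apply Subtype.ext
          change (i * i) ^ 2 = 1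
          rw [pow_two]; exact hi4
        · intro h
          exact hi2 (congrArg Subtype.val h)
      rw [← h3]; exact orderOf_dvd_natCard _
    rw [← Nat.coprime_two_right]
    exact Nat.Coprime.coprime_dvd_right h2 h1
  refine ⟨hodd, ?_, hgt⟩
  letI cg : CommGroup K := { (inferInstance : Group K) with mul_comm := fun a b => Subtype.ext (hcomm _ a.2 _ b.2) }
  let V := Additive K
  let act : G → (V →+ V) := fun g =>
    { toFun := fun v => (Additive.ofMul (⟨g * ((Additive.toMul v : K) : G) * g⁻¹, hKn.conj_mem _ (Additive.toMul v : K).2 g⟩ : K) : V)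
      map_zero' := by
        change (Additive.ofMul (⟨g * 1 * g⁻¹, _⟩ : K) : V) = 0
        have : (⟨g * 1 * g⁻¹, hKn.conj_mem _ (one_mem K) g⟩ : K) = 1 := Subtype.ext (by simp)
        exact congrArg Additive.ofMul this
      map_add' := fun v w => by
        have : (⟨g * (((Additive.toMul v : K) : G) * ((Additive.toMul w : K) : G)) * g⁻¹, hKn.conj_mem _ (mul_mem (Additive.toMul v : K).2 (Additive.toMul w : K).2) g⟩ : K) =
          ⟨g * ((Additive.toMul v : K) : G) * g⁻¹, hKn.conj_mem _ (Additive.toMul v : K).2 g⟩ * ⟨g * ((Additive.toMul w : K) : G) * g⁻¹, hKn.conj_mem _ (Additive.toMul w : K).2 g⟩ := by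
          apply Subtype.ext
          change g * (((Additive.toMul v : K) : G) * ((Additive.toMul w : K) : G)) * g⁻¹ =
            (g * ((Additive.toMul v : K) : G) * g⁻¹) * (g * ((Additive.toMul w : K) : G) * g⁻¹)
          group
        exact congrArg Additive.ofMul this }
  have hact : ∀ (g : G) (v : V), (((Additive.toMul (act g v)) : K) : G) = g * ((Additive.toMul v : K) : G) * g⁻¹ := fun g v => rfl
  have hext : ∀ v w : V, (((Additive.toMul v : K) : G) = ((Additive.toMul w : K) : G)) → v = w := by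
    intro v w h
    exact congrArg Additive.ofMul (Subtype.ext h)
  have hneg : ∀ v : V, (((Additive.toMul (-v)) : K) : G) = (((Additive.toMul v : K) : G))⁻¹ := fun v => rfl
  have hres := Cfsg.Agent.H3.QMod.isSquare_of_quaternion (V := V) hodd (act i) (act j) ?_ ?_ ?_
  · exact hres
  · intro v
    apply hext
    rw [hact, hact, hneg, ← htK _ (Additive.toMul v : K).2]; group
  · intro v
    apply hext
    rw [hact, hact, hneg, ← htK _ (Additive.toMul v : K).2, ← hji]; group
  · intro v
    apply hext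
    have h9 := htK (j * (i * ((Additive.toMul v : K) : G) * i⁻¹) * j⁻¹)
      (hKn.conj_mem _ (hKn.conj_mem _ (Additive.toMul v : K).2 i) j)
    rw [hact, hact, hneg, hact, hact, ← h9]
    have e : i * j = (i * i) * (j * i) := by
      have : j * i = i⁻¹ * j := by rw [← hij]; group
      rw [this]; group
    have e1 : i * (j * ((Additive.toMul v : K) : G) * j⁻¹) * i⁻¹ = (i * j) * ((Additive.toMul v : K) : G) * (i * j)⁻¹ := by group
    rw [e1, e]; group

end Cfsg.Agent.H3.FrobEven
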